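import Mathlib
import Cfsg.Agent.Lib.MonType.D3A

/-! The centralizer in `Co0` of the class 3A of `M24`. -/

set_option autoImplicit false
set_option maxRecDepth 100000
set_option exponentiation.threshold 700

namespace H95

open Cfsg Subgroup H16 H15 H96.Geo.M24

theorem exists_theta_perm {Γ : ℕ} {γ : Co0} (hΓ : IsM Γ γ) {p : ℕ} (hp : orderOf γ = p)
    (hodd : Odd p) {c : H54.Cfg} {n : ℕ} [NeZero n] (hn : c.n = n) {t : ℕ → ℕ}
    (X : H54.Ctx c fun i => clsC (t i))
    (h1 : ∀ i < c.n, Code (t i) (lv (t i)) ∧ sqNorm (lv (t i) : GolayPt → ℤ) ≤ 256 ∧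
      γ • clsC (t i) = clsC (t i)) {L : List (ℕ × ℕ)} (hL : L.all (genOk c t Γ) = true)
    {T : Subgroup (Equiv.Perm (Fin n))} (eT : H54.grp _ c (H54.finPt n) (L.map Prod.snd) = T)
    {N : ℕ} (hN : N ≤ Nat.card T) (hcard : Nat.card (centralizer ({γ} : Set Co0)) ≤ p * 2 * N) :
    Nat.card (centralizer ({γ} : Set Co0)) = p * 2 * N ∧ Nat.card T = N ∧
    ∃ θ : centralizer ({γ} : Set Co0) →* T, Function.Surjective θ ∧
      (∀ g, θ g = 1 ↔
        (QuotientGroup.mk g : Spor.Co1) ∈ zpowers (QuotientGroup.mk γ : Spor.Co1)) ∧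
      (∀ g : centralizer ({γ} : Set Co0), (∀ x : L2, γ • x = x → (g : Co0) • x = x) → θ g = 1) := by
  have v : H54.Valid (centralizer ({γ} : Set Co0)) c (fun i => clsC (t i)) (L.map Prod.snd) := by
    intro s hs
    obtain ⟨q, hq, rfl⟩ := List.mem_map.1 hs
    obtain ⟨g, -, hg⟩ := genOk_spec hΓ (fun i hi => ⟨(h1 i hi).1, (h1 i hi).2.1⟩)
      (List.all_eq_true.1 hL q hq)
    exact ⟨g, hg⟩
  let J : Subgroup (centralizer ({γ} : Set Co0)) :=
    (zpowers (QuotientGroup.mk γ : Spor.Co1)).comap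
      ((QuotientGroup.mk' _).comp (centralizer ({γ} : Set Co0)).subtype)
  have hJ : J ≤ H54.Kfix _ c (fun i => clsC (t i)) := by
    rintro g ⟨n, hn⟩ i hi
    have e : γ ^ n • clsC (t i) = clsC (t i) :=
      zpow_mem (show γ ∈ MulAction.stabilizer Co0 _ from (h1 i hi).2.2) n
    change (g : Co0) • clsC (t i) = _
    rcases (mk_eq_mk (γ := γ ^ n) (δ := g)).1 hn with f | f <;> rw [f]
    · exact e
    · rw [mul_smul, center_smul negCo0_mem_center, e]
  have hm : p * 2 ≤ Nat.card J := by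
    have cm : Commute γ negCo0 := Subgroup.mem_center_iff.1 negCo0_mem_center γ
    let u : centralizer ({γ} : Set Co0) := ⟨γ * negCo0, mem_cent_iff.2 (by
      rw [mul_assoc, ← cm.eq])⟩
    have hu : zpowers u ≤ J := by
      rw [zpowers_le]
      exact ⟨1, (zpow_one _).trans (mk_eq_mk.2 (Or.inr rfl))⟩
    refine le_trans (le_of_eq ?_) (card_le_of_le hu)
    have o2 := orderOf_eq_two_of negCo0_mul_self negCo0_ne_one
    rw [Nat.card_zpowers, ← orderOf_coe, cm.orderOf_mul_eq_mul_orderOf_of_coprime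
      (by rw [hp, o2]; exact Nat.coprime_two_right.2 hodd), hp, o2]
  obtain ⟨e1, e2, e4, θ, s, e3, -⟩ := exists_toPerm X hn v eT hJ hm hN hcard
  refine ⟨e2, e4, θ, s, fun g => ?_, fun g hg => ?_⟩
  · rw [← MonoidHom.mem_ker, e3]; rfl
  · rw [← MonoidHom.mem_ker, e3, ← e1]
    exact fun i hi => hg _ (h1 i hi).2.2

/-- A group of shape `3.U.2` whose outer elements do not centralize the centre of `3.U`. -/
theorem shape_three {T U : Type*} [Group T] [Finite T] [Group U] [IsSimpleGroup U]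
    {M : Subgroup T} (hM : M.index = 2) (φ : M →* U) (hφ : Function.Surjective φ)
    (hc : Nat.card M = 3 * Nat.card U) (hU : 15 ∣ Nat.card U) {w t : T} (hwM : w ∈ M)
    (hw : ∀ m ∈ M, m * w = w * m) (ht : t * w ≠ w * t) :
    pCore 2 T = ⊥ ∧ (φ.ker.map M.subtype).Normal ∧ Nat.card φ.ker = 3 := by
  have : Finite U := Finite.of_surjective _ hφ
  have hn := normal_of_index_eq_two hM
  have h3 : Nat.card φ.ker = 3 := Nat.eq_of_mul_eq_mul_right (Nat.card_pos (α := U))
    ((H54.card_ker_mul φ hφ).trans hc)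
  have key : ∀ (p : ℕ) [Fact p.Prime] (P : Subgroup M), P.Normal → IsPGroup p P → p < 5 →
      P ≤ φ.ker := by
    intro p hp P hP h h5
    rw [← Subgroup.map_eq_bot_iff]
    refine (hP.map φ hφ).eq_bot_or_eq_top.resolve_right fun e => ?_
    obtain ⟨k, hk⟩ := (h.map φ).exists_card_eq
    rw [e, card_top] at hk
    have := (Nat.prime_dvd_prime_iff_eq Nat.prime_five hp.out).1
      (Nat.prime_five.dvd_of_dvd_pow (hk ▸ (show 5 ∣ 15 by norm_num).trans hU))
    omega
  refine ⟨?_, ⟨?_⟩, h3⟩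
  · have h1 : ∀ x ∈ pCore 2 T, x ∈ M → x = 1 := by
      intro x hx hxM
      have hp := (H1.isPGroup_pCore (p := 2) (G := T)).comap_of_injective _ M.subtype_injective
      have h2 := key 2 _ ((pCore_normal 2 T).comap _) hp (by norm_num) (x := ⟨x, hxM⟩) hx
      obtain ⟨k, hk⟩ := hp ⟨⟨x, hxM⟩, hx⟩
      have h4 : orderOf (⟨⟨x, hxM⟩, h2⟩ : φ.ker) ∣ 2 ^ k :=
        orderOf_dvd_of_pow_eq_one (Subtype.ext (congrArg
          (fun y : comap M.subtype (pCore 2 T) => (y : M)) hk))
      have h5 := orderOf_eq_one_iff.1 (Nat.eq_one_of_dvd_coprimes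
        (Nat.Coprime.pow_left k (show Nat.Coprime 2 3 by norm_num)) h4
        ((_root_.orderOf_dvd_natCard _).trans h3.dvd))
      exact congrArg (fun y : φ.ker => ((y : M) : T)) h5
    rw [eq_bot_iff]
    intro x hx
    by_contra h0
    have h2 : x * w * x⁻¹ * w⁻¹ = 1 := h1 _
      (by simpa only [mul_assoc] using
        mul_mem hx ((pCore_normal 2 T).conj_mem _ (inv_mem hx) w))
      (mul_mem (hn.conj_mem _ hwM x) (inv_mem hwM))
    have h4 := hw _ ((mul_mem_iff_of_index_two hM).2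
      (iff_of_false (fun h => ht (hw t h)) fun h => h0 (h1 x hx h)))
    rw [mul_inv_eq_one, mul_inv_eq_iff_eq_mul] at h2
    rw [mul_assoc, h2, ← mul_assoc, ← mul_assoc] at h4
    exact ht (mul_right_cancel h4)
  · rintro _ ⟨x, hx, rfl⟩ g
    have : Fact (Nat.Prime 3) := ⟨Nat.prime_three⟩
    have h4 : IsPGroup 3 φ.ker := IsPGroup.of_card (n := 1) (by rw [h3]; rfl)
    exact ⟨MulAut.conjNormal g x, key 3 (φ.ker.map (MulAut.conjNormal g).toMonoidHom)
      (Normal.map inferInstance _ (MulAut.conjNormal g).surjective) (h4.map _) (by norm_num)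
      ⟨x, hx, rfl⟩, rfl⟩

theorem largeFischer_of {G T : Type*} [Group G] [Finite G] [Group T] {y : G}
    (Θ : centralizer ({y} : Set G) →* T) (hs : Function.Surjective Θ)
    (hS : IsExtraspecialCentralizerSetting y Θ.ker 6) {M : Subgroup T} (hM : M.index = 2)
    (φ : M →* PSU 4 H74.F9 3) (hφ : Function.Surjective φ)
    (hn : (φ.ker.map M.subtype).Normal) (h3 : Nat.card φ.ker = 3) : IsOfLargeFischerType G := by
  have : Finite T := Finite.of_surjective _ hs
  have := normal_of_index_eq_two hM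
  refine ⟨y, Θ.ker, inferInstance, hS, (φ.ker.map M.subtype).comap Θ, M.comap Θ, inferInstance,
    inferInstance, fun x hx => ?_, comap_mono (map_subtype_le _), ?_,
    ⟨H74.F9, inferInstance, inferInstance, rfl, ⟨?_⟩⟩, (index_comap_of_surjective _ hs).trans hM⟩
  · rw [mem_comap, show Θ x = 1 from hx]; exact one_mem _
  · have h1 := card_mul_index ((φ.ker.map M.subtype).comap Θ)
    have h2 := card_mul_index (φ.ker.map M.subtype)
    rw [card_map_of_injective M.subtype_injective, h3] at h2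
    rw [index_comap_of_surjective _ hs, ← H54.card_ker_mul Θ hs, ← h2, ← mul_assoc] at h1
    rw [Nat.eq_of_mul_eq_mul_right (Nat.pos_of_ne_zero index_ne_zero_of_finite) h1, mul_comm]
  · refine (QuotientGroup.quotientMulEquivOfEq ?_).trans (QuotientGroup.quotientKerEquivOfSurjective
      (φ.comp (Θ.subgroupComap M)) (hφ.comp (Θ.subgroupComap_surjective_of_surjective M hs)))
    ext x
    exact ⟨fun ⟨u, hu, e⟩ => (congrArg φ (Subtype.ext e)).symm.trans hu, fun h => ⟨_, h, rfl⟩⟩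

theorem in3A : inM24 c3A = true := by decide +kernel

/-- the permutation matrix of the class 3A of `M24` -/
noncomputable def γ3A : Co0 := permHom ⟨permOf c3A, permOf_mem_M24 in3A⟩

theorem ord3A : orderOf γ3A = 3 := orderOf_pm in3A (by decide +kernel)

theorem stab3A : Nat.card (centralizer ({γ3A} : Set Co0)) =
    (MulAction.orbit (centralizer {γ3A}) (mk2 (e8 none))).ncard * 69120 :=
  card_cent_pm in3A card_cent3A (k := 64) (by decide +kernel)

theorem data3A : ∃ (T : Subgroup (Equiv.Perm (Fin 378))) (θ : centralizer ({γ3A} : Set Co0) →* T),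
    CentData γ3A 6 θ ∧ pCore 2 T = ⊥ ∧ ∃ (M : Subgroup T) (φ : M →* PSU 4 H74.F9 3),
      M.index = 2 ∧ Function.Surjective φ ∧ (φ.ker.map M.subtype).Normal ∧ Nat.card φ.ker = 3 := by
  have X := H54.ctx_fin (n := 378) a3A_check rfl
  have K := H54.Kfix_fin (c := a3A) (n := 378) rfl
  have pm := (H54.allL_iff _ _).1 perm3A
  have v : H54.Valid (Equiv.Perm (Fin 378)) a3A (H54.finPt 378) u3A.gens := fun s hs =>
    H54.exists_perm_rep X (pm s (List.mem_cons_of_mem _ (List.mem_append_left _ hs)))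
  obtain ⟨t, rt⟩ := H54.exists_perm_rep X (pm t3A (by simp))
  obtain ⟨w, hw, rw'⟩ := H54.in_of_memb X (H54.low_of_check X (fun s hs => v.in_grp hs) u3A_low)
    cen3A.1
  have l1 := H54.size_le_card X K (fun s hs => v.in_grp hs) u3A_low
  rw [u3A_size] at l1
  set M := H54.grp (Equiv.Perm (Fin 378)) a3A (H54.finPt 378) u3A.gens with hM
  set T := H54.grp (Equiv.Perm (Fin 378)) a3A (H54.finPt 378) (L3A.map Prod.snd) with hT
  have hMT : M ≤ T := H54.grp_le (K ▸ bot_le) fun s hs => by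
    obtain ⟨g, r⟩ := v s hs
    exact ⟨g, H54.mem_grp_of_rep (hg3A ▸ List.mem_append_left _ hs) r, r⟩
  have htT : t ∈ T := H54.mem_grp_of_rep (by rw [hg3A]; simp) rt
  have hc : M ≤ centralizer {w} := H54.grp_le (K ▸ bot_le) fun s hs => by
    obtain ⟨g, r⟩ := v s hs
    exact ⟨g, mem_cent_iff.2 ((r.commutes_iff X K rw').1 (cen3A.2.1 s hs)), r⟩
  have ht : t * w ≠ w * t := fun e => by
    have := (rt.commutes_iff X K rw').2 e
    rw [cen3A.2.2] at this
    exact Bool.noConfusion this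
  have l2 := card_mul_index (M.subgroupOf T)
  rw [Nat.card_congr (subgroupOfEquivOfLe hMT).toEquiv] at l2
  have l3 : 2 ≤ (M.subgroupOf T).index := by
    have := index_ne_zero_of_finite (H := M.subgroupOf T)
    have : (M.subgroupOf T).index ≠ 1 := fun e =>
      ht (mem_cent_iff.1 (hc (subgroupOf_eq_top.1 (index_eq_one.1 e) htT)))
    omega
  have m := isM_perm in3A
  have h1 := cover_spec m.isR (by decide) cov3A
  have h2 := tab_le m.isR (by decide) tabP3A
  have h2' := tab_le m.isR (by decide) tabQ3A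
  have h3 := ncard_fix γ3A
  have h4 := Set.ncard_le_ncard (orbit_subset (γ := γ3A) (permHom_mem _))
  have h5 := stab3A
  change {x : L2 | γ3A • x = x}.ncard ≤ 4096 at h1
  change 378 ≤ (Xn γ3A 32).ncard at h2
  change 2016 ≤ (Xn γ3A 48).ncard at h2'
  obtain ⟨s1, s2⟩ := tab_spec m.isR (by decide) tabP3A
  obtain ⟨r1, r2⟩ := H54.isPerm_spec (pm r3A List.mem_cons_self)
  obtain ⟨h6, h7, θ, s, k, f⟩ := exists_theta_perm m ord3A (by decide) (n := 378) (t := p3A) rfl
    ⟨X.ok, fun i j hi hj e => r2 i j hi hj (s2 _ _ (r1 i hi) (r1 j hj) e)⟩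
    (fun i hi => ⟨(s1 _ (r1 i hi)).1, (s1 _ (r1 i hi)).2.1.le.trans (by norm_num),
      (s1 _ (r1 i hi)).2.2.1⟩) gen3A hT.symm (N := 19595520) (by nlinarith)
    (by change Nat.card (centralizer ({γ3A} : Set Co0)) ≤ _; omega)
  change Nat.card (centralizer ({γ3A} : Set Co0)) = _ at h6
  have l4 : (M.subgroupOf T).index = 2 := by nlinarith
  obtain ⟨φ, hφ, -⟩ := H54.exists_hom X U43.ctxF d3A_check K (H54.Kfix_fin rfl) v U43.valid hom3A
    g3A_low g3A_up hM.symm (H' := U43.U) rfl (g3A_size.trans_le l1)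
  obtain ⟨e⟩ := U43.equiv
  have := U43.isSimpleGroup
  have := e.symm.isSimpleGroup
  have cU := (Nat.card_congr e.toEquiv).symm.trans U43.card_U
  have hφ' : Function.Surjective
      ((e.toMonoidHom.comp φ).comp (subgroupOfEquivOfLe hMT).toMonoidHom) :=
    (e.surjective.comp hφ).comp (subgroupOfEquivOfLe hMT).surjective
  obtain ⟨a1, a2, a3⟩ := shape_three l4 _ hφ' (by
      rw [Nat.card_congr (subgroupOfEquivOfLe hMT).toEquiv, cU]; rw [l4] at l2; omega)
    (by rw [cU]; norm_num) (w := ⟨w, hMT hw⟩) (t := ⟨t, htT⟩) hw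
    (fun x hx => Subtype.ext (mem_cent_iff.1 (hc hx))) fun e => ht (congrArg Subtype.val e)
  exact ⟨T, θ, ⟨s, k, f, by omega⟩, a1, _, _, l4, hφ', a2, a3⟩

theorem eqns_C3A : True := by
  have := @γ3A.eq_1
  trivial

end H95
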